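import Cfsg.Agent.H681.SimpleChar
import Cfsg.Agent.Characters.DegreeBounds
import Cfsg.Agent.Characters.GaloisBasic
import Cfsg.Agent.Blocks.Basic
import Cfsg.Agent.Blocks.PrincipalSection
import Cfsg.Agent.Characters.SchurBound
import Cfsg.Prelude.Def_BlockRank

/-!
# Three Brauer characters in the principal block (helper971; S4791, S4927)

* `three_le_rank` : three members of a set of characters, linearly independent on the `p`-regular elements;
* `three_le_of_unip` : `1`, `χ`, `σ` in the principal block of the simple group `G`, `U` a subgroup of order prime to `p`,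
  `σ = 0` on `U - 1` (Steinberg), `1 ≠ χ(1) < |U| - 1`.
-/

set_option autoImplicit false

open Cfsg

namespace Cfsg.Agent.H971.XR

open Subgroup Cfsg.Agent.Characters.Core

universe u

variable {G : Type u} [Group G] [Finite G] {p : ℕ}

/-- three members of a set of characters, independent on the `p`-regular elements -/
theorem card_le_rank {n : ℕ} {B : Set (IrrCharacter G)} (θ : Fin n → IrrCharacter G) (hB : ∀ i, θ i ∈ B)
    (h : ∀ c : Fin n → ℂ, (∀ g : G, ¬ p ∣ orderOf g → ∑ i, c i * (θ i : G → ℂ) g = 0) → ∀ i, c i = 0) :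
    n ≤ blockRank p B := by
  classical
  have hfin : Finite (IrrCharacter G) := finite_irr
  set V := Submodule.span ℂ ((fun χ : IrrCharacter G => pRegularPart p (χ : G → ℂ)) '' B) with hV
  have hfd : FiniteDimensional ℂ V := FiniteDimensional.span_of_finite ℂ ((Set.toFinite B).image _)
  let v : Fin n → V := fun i => ⟨pRegularPart p (θ i : G → ℂ), Submodule.subset_span ⟨θ i, hB i, rfl⟩⟩
  have hv : LinearIndependent ℂ v := by
    rw [Fintype.linearIndependent_iff]
    intro c hc
    refine h c fun g hg => ?_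
    have h1 := congrFun (congrArg Subtype.val hc) g
    rw [AddSubmonoidClass.coe_finsetSum, Finset.sum_apply] at h1
    rw [← show ((0 : V) : G → ℂ) g = 0 from rfl, ← h1]
    refine Finset.sum_congr rfl fun i _ => ?_
    rw [SetLike.val_smul, Pi.smul_apply, smul_eq_mul]
    congr 1
    show _ = pRegularPart p (θ i : G → ℂ) g
    unfold pRegularPart
    exact (if_pos hg).symm
  have h2 := hv.fintype_card_le_finrank
  rwa [Fintype.card_fin] at h2

/-- a character which is constant on `U - 1`, of degree less than `|U| - 1`, is constant on `U` -/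
theorem const_of_const {χ : G → ℂ} (hχ : IsIrrCharacter G χ) (U : Subgroup G) (hd : charDegree χ + 1 < Nat.card U)
    {k : ℂ} (hk : ∀ u ∈ U, u ≠ 1 → χ u = k) : ∀ u ∈ U, χ u = χ 1 := by
  classical
  have := Fintype.ofFinite U
  have hd1 := Cfsg.Agent.Blocks.Basic.irr_one_eq_charDegree hχ
  set d := charDegree χ with hdd
  -- the multiplicity of the trivial character
  obtain ⟨m, hm⟩ := classInner_isNat (G := U) (isCharacter_comp U.subtype (isIrr_isCharacter hχ)) isCharacter_one
  have hn0 : (Nat.card U : ℂ) ≠ 0 := card_ne_zero_complex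
  have hsum : ∑ u : U, χ u = Nat.card U * m := by
    rw [classInner_def] at hm
    rw [← hm, ← mul_assoc, mul_inv_cancel₀ hn0, one_mul]
    refine Finset.sum_congr rfl fun u _ => ?_
    simp
  have h1 : ∑ u : U, χ u = d + (Nat.card U - 1) * k := by
    rw [← Finset.add_sum_erase _ _ (Finset.mem_univ (1 : U))]
    congr 1
    have h2 : ∀ u ∈ Finset.univ.erase (1 : U), χ (u : G) = k := by
      intro u hu
      exact hk u u.2 fun h => (Finset.ne_of_mem_erase hu) (Subtype.ext h)
    rw [Finset.sum_congr rfl h2, Finset.sum_const, Finset.card_erase_of_mem (Finset.mem_univ _), Finset.card_univ,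
      ← Nat.card_eq_fintype_card, nsmul_eq_mul, Nat.cast_sub Nat.card_pos, Nat.cast_one]
  set n := Nat.card U with hn
  -- `k` is an algebraic integer
  have hnt : Nontrivial U := Finite.one_lt_card_iff_nontrivial.1 (by omega)
  obtain ⟨u₀, hu₀⟩ := exists_ne (1 : U)
  have hkI : IsIntegral ℤ k := by
    rw [← hk u₀ u₀.2 fun h => hu₀ (Subtype.ext h)]
    exact Cfsg.Agent.Characters.GaloisBasic.isIntegral_apply (isIrr_isCharacter hχ) _
  have hmd : m ≤ d := by
    have h3 : ‖∑ u : U, χ u‖ ≤ n * d := by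
      refine (norm_sum_le _ _).trans ?_
      have h4 : ∀ u ∈ (Finset.univ : Finset U), ‖χ (u : G)‖ ≤ d := fun u _ =>
        Cfsg.Agent.Characters.SchurBound.norm_le (isIrr_isCharacter hχ) hd1 _
      refine (Finset.sum_le_sum h4).trans ?_
      rw [Finset.sum_const, Finset.card_univ, ← Nat.card_eq_fintype_card, nsmul_eq_mul]
    rw [hsum, ← Nat.cast_mul, Complex.norm_natCast, ← Nat.cast_mul] at h3
    have h5 : n * m ≤ n * d := by exact_mod_cast h3
    exact Nat.le_of_mul_le_mul_left h5 (by omega)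
  have hE : (n : ℂ) * m = d + (n - 1) * k := hsum.symm.trans h1
  have hz : ((n - 1 : ℕ) : ℂ) * (m - k) = ((d - m : ℕ) : ℂ) := by
    rw [Nat.cast_sub (by omega), Nat.cast_sub hmd, Nat.cast_one]
    linear_combination hE
  have hn1 : ((n - 1 : ℕ) : ℂ) ≠ 0 := by
    have : n - 1 ≠ 0 := by omega
    exact_mod_cast this
  have h6 : n - 1 ∣ d - m := by
    refine Cfsg.Agent.Characters.DegreeBounds.nat_dvd_of_isIntegral_div (by omega) ?_
    rw [← hz, mul_div_cancel_left₀ _ hn1]
    exact (isIntegral_natCast m).sub hkI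
  have h7 : d - m = 0 := Nat.eq_zero_of_dvd_of_lt h6 (by omega)
  have h8 : m - k = (0 : ℂ) := by
    rw [h7, Nat.cast_zero] at hz
    exact (mul_eq_zero.1 hz).resolve_left hn1
  have h9 : k = χ 1 := by
    rw [hd1, show d = m by omega]
    exact (sub_eq_zero.1 h8).symm
  intro u hu
  by_cases hu1 : u = 1
  · rw [hu1]
  · rw [hk u hu hu1, h9]

/-- **`3 ≤ l(B₀)`** -/
theorem three_le_of_unip [IsSimpleGroup G] (hna : ¬ ∀ a b : G, a * b = b * a) {M : Ideal AlgInt} (hM : IsPModular p M)
    {χ σ : IrrCharacter G} (hχ : χ ∈ principalBlock M G) (hσ : σ ∈ principalBlock M G)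
    (hχ1 : charDegree (χ : G → ℂ) ≠ 1) (U : Subgroup G) (hU : ¬ p ∣ Nat.card U)
    (hd : charDegree (χ : G → ℂ) + 1 < Nat.card U) (hσU : ∀ u ∈ U, u ≠ 1 → (σ : G → ℂ) u = 0) :
    3 ≤ blockRank p (principalBlock M G) := by
  classical
  have hreg : ∀ u ∈ U, ¬ p ∣ orderOf u := by
    intro u hu h
    exact hU (h.trans ((Subgroup.orderOf_mk u hu).symm ▸ orderOf_dvd_natCard (⟨u, hu⟩ : U)))
  refine card_le_rank ![⟨fun _ => 1, Cfsg.Agent.Blocks.Basic.isIrrCharacter_one⟩, χ, σ] ?_ ?_
  · intro i
    fin_cases i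
    · have : M.IsPrime := hM.2.1.isPrime
      exact Cfsg.Agent.Blocks.PrincipalSection.one_mem_principalBlock
    · exact hχ
    · exact hσ
  intro c hc
  have hc' : ∀ g : G, ¬ p ∣ orderOf g → c 0 + c 1 * (χ : G → ℂ) g + c 2 * (σ : G → ℂ) g = 0 := by
    intro g hg
    have := hc g hg
    rw [Fin.sum_univ_three] at this
    simpa using this
  have h2 : ∀ u ∈ U, u ≠ 1 → c 0 + c 1 * (χ : G → ℂ) u = 0 := by
    intro u hu hu1
    have := hc' u (hreg u hu)
    rwa [hσU u hu hu1, mul_zero, add_zero] at this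
  have hnt : Nontrivial U := Finite.one_lt_card_iff_nontrivial.1 (by omega)
  obtain ⟨u₀, hu₀⟩ := exists_ne (1 : U)
  have hu₀' : (u₀ : G) ≠ 1 := fun h => hu₀ (Subtype.ext h)
  have h3 : c 1 = 0 := by
    by_contra hne
    have h4 : ∀ u ∈ U, u ≠ 1 → (χ : G → ℂ) u = -c 0 / c 1 := by
      intro u hu hu1
      rw [eq_div_iff hne]
      linear_combination h2 u hu hu1
    have h5 := const_of_const χ.2 U hd h4 u₀ u₀.2
    apply hu₀'
    refine Cfsg.Agent.H681.SimpleChar.eq_one_of_norm_eq hna χ.2 ?_ (by rw [h5])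
    rw [Cfsg.Agent.Blocks.Basic.irr_one_eq_charDegree χ.2]
    exact_mod_cast hχ1
  have h4 : c 0 = 0 := by
    have := h2 u₀ u₀.2 hu₀'
    rwa [h3, zero_mul, add_zero] at this
  have h5 : c 2 = 0 := by
    have := hc' 1 (hreg 1 (one_mem U))
    rw [h3, h4, zero_mul, zero_add, zero_add] at this
    exact (mul_eq_zero.1 this).resolve_right (isIrr_apply_one_ne_zero σ.2)
  intro i
  fin_cases i
  · exact h4
  · exact h3
  · exact h5

end Cfsg.Agent.H971.XR
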