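import Cfsg.Agent.H116.RatB0.StRow

/-!
# The Steinberg character in the principal block, zero on `U - 1` (helper971; S4791, S4927)
-/

set_option autoImplicit false
set_option linter.unusedSectionVars false

namespace Cfsg.Agent.H971.XR

open Cfsg CoxeterSystem Cfsg.Agent.ChevalleyStructure.CoxeterGeom Cfsg.Agent.Tits.Roots Cfsg.Agent.Tits.Core
  Cfsg.Agent.Tits.Exchange Cfsg.Agent.Nodes.Reps Cfsg.Agent.Nodes.BNOf Cfsg.Agent.Nodes.StabComb
  Cfsg.Agent.Nodes.Bruhat Cfsg.Agent.Nodes.OppDec Cfsg.Agent.Nodes.LeviDec Cfsg.Agent.Nodes.NormalForm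
  Cfsg.Agent.KFacts.RgdOpp Cfsg.Agent.KFacts.RgdAut Cfsg.Agent.KFacts.RgdDiag Cfsg.Agent.H554.RG
open Cfsg.Agent.H116.RatB0 (hgen_of_GG sup_eq_PJ mem_of_alt reg)

universe u

variable {I W : Type*} {S : Type u} [Fintype I] [DecidableEq I] [Group W] [Group S] {M : CoxeterMatrix I}
  {cs : CoxeterSystem M W} {A : I → I → ℤ} {h : IsCartan M A} {r : ℕ} {T : Subgroup S} {n : I → S}
  {X : (I → ℤ) → Subgroup S} (R : RGD cs h r T n X)

include R in
/-- **The Steinberg character in the principal block, with its values on `U - 1`.** -/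
theorem exists_st_U [Finite W] [Finite S] [hr : Fact r.Prime] (hG : GG cs h T X = ⊤) {p : ℕ} [hp : Fact p.Prime]
    (hpr : p ≠ r) {M : Ideal AlgInt} (hM : IsPModular p M)
    (hJ : ∀ k : I, p ∣ (PJ cs h T X {j | j ≠ k}).index) :
    ∃ χ : IrrCharacter S, χ ∈ principalBlock M S ∧ ∀ u ∈ RGD.Sup X (RGD.Pos cs h), u ≠ 1 → (χ : S → ℂ) u = 0 := by
  classical
  obtain ⟨h1, h2⟩ := H167.AltRGD.exists_char_alt R (hgen_of_GG R hG)
  simp only [sup_eq_PJ R hG] at h1 h2
  set χ : IrrCharacter S := ⟨_, h1⟩ with hχ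
  have hval : ∀ g, (χ : S → ℂ) g = ∑ K ∈ (Finset.univ : Finset I).powerset, (((-1 : ℤ) ^ K.card : ℤ) : ℂ) *
      fixedPointCharacter (PJ cs h T X (K : Set I)) g := by
    intro g
    show (∑ K ∈ (Finset.univ : Finset I).powerset, (-1 : ℂ) ^ K.card *
      fixedPointCharacter (PJ cs h T X (K : Set I)) g) = _
    refine Finset.sum_congr rfl fun K _ => ?_
    push_cast
    rfl
  have hdeg : charDegree (χ : S → ℂ) = Nat.card (RGD.Sup X (RGD.Pos cs h)) := by
    have h3 : (charDegree (χ : S → ℂ) : ℂ) = (χ : S → ℂ) 1 := (Blocks.Knorr.charDegree_eq χ.2).symm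
    have h4 : (χ : S → ℂ) 1 = (Nat.card (RGD.Sup X (RGD.Pos cs h)) : ℂ) := by
      refine (h2 1 (one_mem _)).trans ?_
      congr 1
      exact Nat.card_congr ⟨fun u => u.1, fun u => ⟨u, by simp⟩, fun u => rfl, fun u => rfl⟩
    rw [h4] at h3
    exact_mod_cast h3
  have hp' : ¬ p ∣ charDegree (χ : S → ℂ) := by
    rw [hdeg]
    obtain ⟨Q, hQ⟩ := exists_sylow R hG
    have h3 := Q.isPGroup'
    obtain ⟨k, hk⟩ := IsPGroup.iff_card.1 h3
    rw [← hQ]
    intro h4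
    rw [hk] at h4
    exact hpr ((Nat.prime_dvd_prime_iff_eq hp.out hr.out).1 (hp.out.dvd_of_dvd_pow h4))
  refine ⟨χ, ?_, ?_⟩
  · refine mem_of_alt hM (Finset.univ : Finset I).powerset (fun K => (-1 : ℤ) ^ K.card)
      (fun K => PJ cs h T X (K : Set I)) χ hval hp' ?_
    intro K _
    by_cases hK : K = Finset.univ
    · refine Or.inr ?_
      rw [hK, Finset.coe_univ, PJ_univ R hG]
    · obtain ⟨k, hk⟩ : ∃ k, k ∉ K := by
        by_contra hcon
        push Not at hcon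
        exact hK (Finset.eq_univ_iff_forall.2 hcon)
      refine Or.inl ((hJ k).trans (Subgroup.index_dvd_of_le (PJ_mono R ?_)))
      intro j hj hjk
      subst hjk
      exact hk hj
  · intro b hb hb1
    refine (h2 b (RGD.U_le_B hb)).trans ?_
    have h3 : IsEmpty {u : RGD.Sup X (RGD.Pos cs h) // (u : S)⁻¹ * b * u ∈ T} := by
      refine ⟨fun ⟨u, hu⟩ => hb1 ?_⟩
      have h4 : (u : S)⁻¹ * b * u ∈ RGD.Sup X (RGD.Pos cs h) ⊓ T :=
        Subgroup.mem_inf.2 ⟨Subgroup.mul_mem _ (Subgroup.mul_mem _ (Subgroup.inv_mem _ u.2) hb) u.2, hu⟩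
      rw [U_inf_T R, Subgroup.mem_bot] at h4
      have h5 : b = u * ((u : S)⁻¹ * b * u) * (u : S)⁻¹ := by group
      rw [h5, h4, mul_one, mul_inv_cancel]
    rw [Nat.card_of_isEmpty, Nat.cast_zero]

end Cfsg.Agent.H971.XR
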